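-- helper37: Suzuki groups, part 25: the outer automorphism group of the Suzuki group
-- (field automorphisms only).
import Mathlib
import Cfsg.Prelude.Def_LieExceptional
import Cfsg.Prelude.Def_KGroupFacts
import Cfsg.Agent.Lib.Helper37.SzRigid2
import Cfsg.Agent.Lib.Helper37.SzLieC

set_option autoImplicit false

universe u

namespace Cfsg.Agent.Lib.Helper37

open Matrix
open scoped Pointwise

section OutCongr

variable {G G' : Type u} [Group G] [Group G']

theorem mulAut_congr_conj (e : G ≃* G') (g : G) :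
    MulAut.congr e (MulAut.conj g) = MulAut.conj (e g) := by
  ext z
  show e (g * e.symm z * g⁻¹) = e g * z * (e g)⁻¹
  rw [map_mul, map_mul, map_inv, e.apply_symm_apply]

/-- isomorphic groups have outer automorphism groups of the same order -/
theorem card_out_congr (e : G ≃* G') : Nat.card (Cfsg.Out G) = Nat.card (Cfsg.Out G') := by
  have he : (Cfsg.Inn G).map (MulAut.congr e : MulAut G →* MulAut G') = Cfsg.Inn G' := by
    ext x
    constructor
    · rintro ⟨y, ⟨g, rfl⟩, rfl⟩
      exact ⟨e g, (mulAut_congr_conj e g).symm⟩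
    · rintro ⟨g', rfl⟩
      refine ⟨MulAut.conj (e.symm g'), ⟨e.symm g', rfl⟩, ?_⟩
      show MulAut.congr e (MulAut.conj (e.symm g')) = MulAut.conj g'
      rw [mulAut_congr_conj, e.apply_symm_apply]
  exact Nat.card_congr (QuotientGroup.congr (Cfsg.Inn G) (Cfsg.Inn G') (MulAut.congr e) he).toEquiv

end OutCongr

section RingAutCard

variable {F : Type*} [Field F] [Fintype F]

/-- the number of automorphisms of a field with `2 ^ N` elements -/
theorem card_ringEquiv_of_card {N : ℕ} (hF : Fintype.card F = 2 ^ N) :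
    Nat.card (F ≃+* F) = N := by
  have : Fact (Nat.Prime 2) := ⟨Nat.prime_two⟩
  have : CharP F 2 := charP_of_card_eq_prime_pow hF
  let _ : Algebra (ZMod 2) F := ZMod.algebra F 2
  have hfin : Module.finrank (ZMod 2) F = N := by
    have h1 : 2 ^ Module.finrank (ZMod 2) F = 2 ^ N := by
      rw [FiniteField.pow_finrank_eq_card, hF]
    exact Nat.pow_right_injective (le_refl 2) h1
  let e : (F ≃+* F) ≃ (F ≃ₐ[ZMod 2] F) :=
    { toFun := fun σ => AlgEquiv.ofRingEquiv (f := σ) (fun r => by
        have : (σ : F →+* F).comp (algebraMap (ZMod 2) F) = algebraMap (ZMod 2) F :=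
          Subsingleton.elim _ _
        exact DFunLike.congr_fun this r)
      invFun := fun τ => τ.toRingEquiv
      left_inv := fun σ => by ext; rfl
      right_inv := fun τ => by ext; rfl }
  have hcard : Nat.card (F ≃ₐ[ZMod 2] F) = N := by
    rw [← hfin]
    exact (Nat.card_congr (Equiv.ofBijective _
      (FiniteField.bijective_frobeniusAlgEquivOfAlgebraic_pow (ZMod 2) F)).symm).trans (by simp)
  rw [Nat.card_congr e, hcard]

end RingAutCard

section SzAut

variable {F : Type*} [Field F] [Fintype F] {m : ℕ}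

/-- the endomorphism of the Suzuki group induced by a ring endomorphism of the field -/
noncomputable def szFieldHom (h : SzData F (2 ^ (m + 1))) (ψ : F →+* F) :
    ↥(Cfsg.Sz F m) →* ↥(Cfsg.Sz F m) :=
  szEmb h h ψ (fun x => (map_pow ψ x _).symm)

theorem szFieldHom_szTm (h : SzData F (2 ^ (m + 1))) (ψ : F →+* F) (a b : F) :
    szFieldHom h ψ (szTm h a b) = szTm h (ψ a) (ψ b) :=
  Subtype.ext (szEmb0_szTm h ψ (fun x => (map_pow ψ x _).symm) a b)

theorem szFieldHom_szWm (h : SzData F (2 ^ (m + 1))) (ψ : F →+* F) :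
    szFieldHom h ψ (szWm h) = szWm h :=
  Subtype.ext (szEmb0_szWm h h ψ)

theorem szFieldHom_injective (h : SzData F (2 ^ (m + 1))) (ψ : F →+* F) :
    Function.Injective (szFieldHom (m := m) h ψ) := szEmb_injective h h ψ _

/-- the automorphism of the Suzuki group induced by a field automorphism -/
noncomputable def szFieldAut (h : SzData F (2 ^ (m + 1))) (ψ : F ≃+* F) :
    MulAut ↥(Cfsg.Sz F m) :=
  MulEquiv.ofBijective (szFieldHom h (ψ : F →+* F))
    ⟨szFieldHom_injective h _, Finite.injective_iff_surjective.mp (szFieldHom_injective h _)⟩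

theorem szFieldAut_apply (h : SzData F (2 ^ (m + 1))) (ψ : F ≃+* F) (x : ↥(Cfsg.Sz F m)) :
    szFieldAut h ψ x = szFieldHom h (ψ : F →+* F) x := rfl

/-- every injective homomorphism between Suzuki groups is, up to conjugacy, induced by a field
homomorphism -/
theorem sz_hom_rigid {K : Type*} [Field K] [Fintype K] {k : ℕ} (hm : 1 ≤ m)
    (hF : Fintype.card F = 2 ^ (2 * m + 1)) (hk : 1 ≤ k) (hK : Fintype.card K = 2 ^ (2 * k + 1))
    (hdiv : 2 * k + 1 ∣ 2 * m + 1)
    (φ : ↥(Cfsg.Sz K k) →* ↥(Cfsg.Sz F m)) (hφ : Function.Injective φ) :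
    ∃ (g : ↥(Cfsg.Sz F m)) (ψ : K →+* F),
      (∀ a b : K, g * φ (szTm (szData_of_card hk hK) a b) * g⁻¹ =
        szTm (szData_of_card hm hF) (ψ a) (ψ b)) ∧
      g * φ (szWm (szData_of_card hk hK)) * g⁻¹ = szWm (szData_of_card hm hF) := by
  have h := szData_of_card hm hF
  have h₀ := szData_of_card hk hK
  obtain ⟨g₁, h1⟩ := sz_norm_sylow hm hF hk hK φ
  have hinj1 := conjHom_injective g₁ φ hφ
  obtain ⟨g₂, h2T, h2H⟩ := sz_norm_torus h₀ h _ hinj1 h1
  have hinj2 := conjHom_injective g₂ _ hinj1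
  obtain ⟨g₃, ψ, h3T, h3H, h3c⟩ := sz_norm_center h₀ h _ hinj2 h2T h2H
  have hinj3 := conjHom_injective g₃ _ hinj2
  have h5 := sz_norm_trans h₀ h _ h3T h3H ψ (th_compat hK hdiv ψ) h3c
  have h6 := sz_norm_inversion h₀ h _ hinj3 h3H ψ h5
  have e1 : conjHom g₃ (conjHom g₂ (conjHom g₁ φ)) = conjHom (g₃ * (g₂ * g₁)) φ := by
    rw [conjHom_conjHom g₁ g₂ φ, conjHom_conjHom]
  rw [e1] at h5 h6
  exact ⟨g₃ * (g₂ * g₁), ψ, h5, h6⟩

omit [Fintype F] in
/-- an element commuting with a central translation and the inversion is trivial -/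
theorem sz_eq_one_of_comm [Finite F] (h : SzData F (2 ^ (m + 1))) (g : ↥(Cfsg.Sz F m))
    (hT : g * szTm h 0 1 * g⁻¹ = szTm h 0 1) (hW : g * szWm h * g⁻¹ = szWm h) : g = 1 := by
  have hT' : g * szTm h 0 1 = szTm h 0 1 * g := mul_inv_eq_iff_eq_mul.mp hT
  have hW' : g * szWm h = szWm h * g := mul_inv_eq_iff_eq_mul.mp hW
  have hinf : g • oInf F m = oInf F m := by
    apply szTm_fix h (a := 0) (b := 1) (by
      rintro ⟨_, h1⟩
      exact one_ne_zero h1)
    rw [← mul_smul, ← hT', mul_smul, szTm_smul_inf]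
  have hzero : g • oPt m (0 : F) 0 = oPt m (0 : F) 0 := by
    rw [← szWm_smul_inf h, ← mul_smul, hW', mul_smul, hinf]
  obtain ⟨ν, rfl⟩ := sz_two_point' h g hinf hzero
  have e : szHsub h ν = szHsub h ν⁻¹ := by
    rw [← szWm_conj_szHsub, ← hW', mul_assoc, szWm_mul_self, mul_one]
  have hνν : ν * ν = 1 := mul_eq_one_iff_eq_inv.mpr (szHsub_inj h e)
  have hν1 : ν = 1 := h.unit_sq_eq_one (by rw [pow_two, ← Units.val_mul, hνν, Units.val_one])
  rw [hν1, szHsub_one]

/-- the outer automorphism group of the Suzuki group (ovoid model) -/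
theorem card_out_sz (hm : 1 ≤ m) (hF : Fintype.card F = 2 ^ (2 * m + 1)) :
    Nat.card (Cfsg.Out ↥(Cfsg.Sz F m)) = 2 * m + 1 := by
  have h := szData_of_card hm hF
  let Θ : (F ≃+* F) → Cfsg.Out ↥(Cfsg.Sz F m) := fun ψ => QuotientGroup.mk (szFieldAut h ψ)
  have hΘ : Function.Bijective Θ := by
    constructor
    · intro ψ₁ ψ₂ h12
      have h1 : szFieldAut h ψ₁ / szFieldAut h ψ₂ ∈ Cfsg.Inn ↥(Cfsg.Sz F m) :=
        QuotientGroup.eq_iff_div_mem.mp h12
      obtain ⟨g, hg⟩ := h1
      have hg' : ∀ x, g * szFieldAut h ψ₂ x * g⁻¹ = szFieldAut h ψ₁ x := by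
        intro x
        have h2 : MulAut.conj g * szFieldAut h ψ₂ = szFieldAut h ψ₁ := by
          rw [hg, div_mul_cancel]
        exact congrArg (fun f : MulAut ↥(Cfsg.Sz F m) => f x) h2
      have hT : ∀ a b : F, g * szTm h (ψ₂ a) (ψ₂ b) * g⁻¹ = szTm h (ψ₁ a) (ψ₁ b) := by
        intro a b
        have h3 := hg' (szTm h a b)
        rw [szFieldAut_apply, szFieldAut_apply, szFieldHom_szTm, szFieldHom_szTm] at h3
        exact h3
      have hW : g * szWm h * g⁻¹ = szWm h := by
        have h3 := hg' (szWm h)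
        rw [szFieldAut_apply, szFieldAut_apply, szFieldHom_szWm, szFieldHom_szWm] at h3
        exact h3
      have hg1 : g = 1 := by
        apply sz_eq_one_of_comm h g _ hW
        have h3 := hT 0 1
        rw [map_zero, map_one, map_zero, map_one] at h3
        exact h3
      ext a
      have h3 := hT a 0
      rw [hg1, one_mul, inv_one, mul_one] at h3
      exact ((szTm_inj h h3).1).symm
    · intro x
      induction x using QuotientGroup.induction_on with
      | H φ =>
        obtain ⟨g, ψ, hT, hW⟩ := sz_hom_rigid hm hF hm hF (dvd_refl _) φ.toMonoidHom φ.injective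
        let ψ' : F ≃+* F := RingEquiv.ofBijective ψ
          ⟨ψ.injective, Finite.injective_iff_surjective.mp ψ.injective⟩
        refine ⟨ψ', ?_⟩
        show (QuotientGroup.mk (szFieldAut h ψ') : Cfsg.Out ↥(Cfsg.Sz F m)) = QuotientGroup.mk φ
        rw [QuotientGroup.eq_iff_div_mem]
        refine ⟨g, ?_⟩
        have hloc : MonoidHom.eqLocus (conjHom g φ.toMonoidHom) (szFieldHom h ψ) = ⊤ := by
          have hT' : ∀ a b : F, szTm h a b ∈
              MonoidHom.eqLocus (conjHom g φ.toMonoidHom) (szFieldHom h ψ) := by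
            intro a b
            show conjHom g φ.toMonoidHom (szTm h a b) = szFieldHom h ψ (szTm h a b)
            rw [szFieldHom_szTm]
            exact hT a b
          have hW' : szWm h ∈ MonoidHom.eqLocus (conjHom g φ.toMonoidHom) (szFieldHom h ψ) := by
            show conjHom g φ.toMonoidHom (szWm h) = szFieldHom h ψ (szWm h)
            rw [szFieldHom_szWm]
            exact hW
          exact sz_eq_top_of_T_Tw h _ hT'
            (fun a b => Subgroup.mul_mem _ (Subgroup.mul_mem _ hW' (hT' a b)) hW')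
        show MulAut.conj g = szFieldAut h ψ' / φ
        rw [eq_div_iff_mul_eq']
        apply MulEquiv.ext
        intro x
        have hx : x ∈ MonoidHom.eqLocus (conjHom g φ.toMonoidHom) (szFieldHom h ψ) := by
          rw [hloc]
          exact Subgroup.mem_top x
        exact hx
  rw [← Nat.card_congr (Equiv.ofBijective Θ hΘ)]
  exact card_ringEquiv_of_card hF

/-- the outer automorphism group of the Suzuki group (matrix model) -/
theorem card_out_lie_sz (hm : 1 ≤ m) (hF : Fintype.card F = 2 ^ (2 * m + 1)) :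
    Nat.card (Cfsg.Out ↥(Cfsg.Lie.Sz F (2 ^ (m + 1)))) = 2 * m + 1 := by
  rw [← card_out_congr (szLieEquiv (szData_of_card hm hF))]
  exact card_out_sz hm hF

end SzAut

end Cfsg.Agent.Lib.Helper37
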